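import Cfsg.Agent.BX.L31.Rel
import Cfsg.Agent.BX.Iso.Facts2
import Cfsg.Agent.BX.Max.Iface
set_option linter.all false

/-!
# `L₂(31)` is a subgroup of the Baby Monster (helper2, for S5527)
-/

set_option autoImplicit false

namespace Cfsg.Agent.BX.L31

open Cfsg.Agent.H819.U33

theorem r1 : Iso.R1 31 15 9 (g wu) (g wh) (g ww) := ⟨u_pow, h_pow, h_u, w_sq, w_h, u_w⟩

theorem ex : Max.Ex31 G := ⟨_, Iso.iso31 r1 u_ne⟩

end Cfsg.Agent.BX.L31
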